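/-
Sylow 3-subgroups with an element of order three whose centralizer has order at most nine.
-/
import Cfsg.Agent.S2807
import Cfsg.Agent.H4.MaxClass
import Cfsg.Agent.H3.Transfer2
import Cfsg.Agent.H3.PGroup
import Mathlib.GroupTheory.IndexNormal

set_option autoImplicit false
set_option linter.unusedSectionVars false
set_option linter.style.haveILetI false

namespace Cfsg.Agent.H61.Fx

open Subgroup
open scoped commutatorElement

universe u

theorem orbit_aux {V : Type*} [CommGroup V] [Fintype V] [DecidableEq V] (h9 : Fintype.card V ≤ 9)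
    (O : Finset V) (h1 : (1 : V) ∉ O) (h3 : ∀ a ∈ O, a ^ 3 = 1) (hinv : ∀ a ∈ O, a⁻¹ ∉ O)
    (hc : ¬ 3 ∣ O.card) (hp : ∏ a ∈ O, a = 1) : False := by
  have hd : Disjoint O (O.image fun a => a⁻¹) := Finset.disjoint_left.2 fun a ha hb => by
    obtain ⟨b, hb', rfl⟩ := Finset.mem_image.1 hb
    exact hinv b hb' ha
  have h1' : (1 : V) ∉ O ∪ O.image fun a => a⁻¹ := by
    simp only [Finset.mem_union, Finset.mem_image, inv_eq_one, exists_eq_right]
    tauto
  have hcard : (insert (1 : V) (O ∪ O.image fun a => a⁻¹)).card = 2 * O.card + 1 := by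
    rw [Finset.card_insert_of_notMem h1', Finset.card_union_of_disjoint hd,
      Finset.card_image_of_injective _ inv_injective]
    ring
  have hle := Finset.card_le_univ (insert (1 : V) (O ∪ O.image fun a => a⁻¹))
  have key : ∀ a ∈ O, ∀ b : V, a * a * b = 1 → b = a := fun a ha b h => by
    have := h3 a ha
    rw [pow_succ, pow_two] at this
    exact mul_left_cancel (h.trans this.symm)
  have h124 : O.card = 1 ∨ O.card = 2 ∨ O.card = 4 := by omega
  rcases h124 with h | h | h
  · obtain ⟨a, rfl⟩ := Finset.card_eq_one.1 h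
    simp_all
  · obtain ⟨a, b, hab, rfl⟩ := Finset.card_eq_two.1 h
    rw [Finset.prod_pair hab] at hp
    exact hinv a (by simp) (by simp [eq_inv_of_mul_eq_one_right hp])
  · obtain ⟨a, O', ha, rfl, h'⟩ := Finset.card_eq_succ.1 h
    obtain ⟨b, c, d, hbc, hbd, hcd, rfl⟩ := Finset.card_eq_three.1 h'
    have hu : insert (1 : V) (insert a {b, c, d} ∪ (insert a {b, c, d} : Finset V).image fun a => a⁻¹)
        = Finset.univ := Finset.eq_univ_of_card _ (by omega)
    simp only [Finset.mem_insert, Finset.mem_singleton, not_or] at ha h1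
    rw [Finset.prod_insert (by simp [ha]), Finset.prod_insert (by simp [hbc, hbd]),
      Finset.prod_pair hcd] at hp
    have hm : a * b ∈ insert (1 : V)
        (insert a {b, c, d} ∪ (insert a {b, c, d} : Finset V).image fun a => a⁻¹) :=
      hu ▸ Finset.mem_univ _
    simp only [Finset.mem_insert, Finset.mem_union, Finset.mem_singleton, Finset.mem_image,
      exists_eq_or_imp, exists_eq_left] at hm
    have hp' : a * b * (c * d) = 1 := by rw [mul_assoc]; exact hp
    rcases hm with e | (e | e | e | e) | e | e | e | e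
    · exact hinv a (by simp) (by simp [eq_inv_of_mul_eq_one_right e])
    · exact h1.2.1 (mul_eq_left.1 e).symm
    · exact h1.1 (mul_eq_right.1 e).symm
    · exact hcd (key c (by simp) d (by rw [← hp', e, mul_assoc])).symm
    · exact hcd (key d (by simp) c (by rw [← hp', e, mul_assoc, mul_comm c d]))
    · exact ha.1 (key a (by simp) b (by rw [mul_assoc, ← e, mul_inv_cancel])).symm
    · exact ha.1 (key b (by simp) a (by rw [mul_assoc, mul_comm b a, ← e, mul_inv_cancel]))
    · rw [← e, inv_mul_cancel_left] at hp'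
      exact h1.2.2.2 hp'.symm
    · rw [← e, mul_comm c d, inv_mul_cancel_left] at hp'
      exact h1.2.2.1 hp'.symm

theorem ncard_cls {G : Type*} [Group G] (H : Subgroup G) (v : G) :
    {y | ∃ k ∈ H, k * v * k⁻¹ = y}.ncard = (centralizer {v}).relIndex H := by
  let _ : MulAction H G := MulAction.compHom G (MulAut.conj.comp H.subtype)
  have h1 : MulAction.stabilizer H v = (centralizer {v}).subgroupOf H := by
    ext k
    rw [mem_subgroupOf, mem_centralizer_singleton_iff]
    exact mul_inv_eq_iff_eq_mul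
  rw [relIndex, ← h1, MulAction.index_stabilizer]
  congr 1
  ext y
  exact ⟨fun ⟨k, hk, e⟩ => ⟨⟨k, hk⟩, e⟩, fun ⟨k, e⟩ => ⟨k, k.2, e⟩⟩

/-- A normal abelian Sylow 3-subgroup of order at most nine inside the derived group: its elements
of order three are real. -/
theorem real_of_abelian {H : Type*} [Group H] [Finite H] (V : Sylow 3 H)
    [hn : (V : Subgroup H).Normal] (hc : ∀ a ∈ (V : Subgroup H), ∀ b ∈ (V : Subgroup H), a * b = b * a)
    (h9 : Nat.card V ≤ 9) (hle : (V : Subgroup H) ≤ commutator H) {v : H}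
    (hv : v ∈ (V : Subgroup H)) (h1 : v ≠ 1) (h3 : v ^ 3 = 1) : ∃ h : H, h * v * h⁻¹ = v⁻¹ := by
  classical
  haveI : Fact (Nat.Prime 3) := ⟨Nat.prime_three⟩
  by_contra hno
  push Not at hno
  letI : CommGroup (V : Subgroup H) :=
    { (inferInstance : Group (V : Subgroup H)) with
      mul_comm := fun a b => Subtype.ext (hc a a.2 b b.2) }
  haveI : Fintype (V : Subgroup H) := Fintype.ofFinite _
  set O : Finset (V : Subgroup H) := Finset.univ.filter fun u => ∃ h : H, h * v * h⁻¹ = u with hO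
  have mO : ∀ u : (V : Subgroup H), u ∈ O ↔ ∃ h : H, h * v * h⁻¹ = u := fun u => by simp [hO]
  have hcard : O.card = (centralizer {v}).index := by
    rw [← relIndex_top_right, ← ncard_cls, ← Set.ncard_coe_finset,
      ← Set.ncard_image_of_injective _ (V : Subgroup H).subtype_injective]
    congr 1
    ext y
    constructor
    · rintro ⟨u, hu, rfl⟩
      obtain ⟨h, e⟩ := (mO u).1 hu
      exact ⟨h, mem_top _, e⟩
    · rintro ⟨h, -, rfl⟩
      exact ⟨⟨_, hn.conj_mem v hv h⟩, (mO _).2 ⟨h, rfl⟩, rfl⟩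
  refine orbit_aux (V := (V : Subgroup H)) (by rwa [← Nat.card_eq_fintype_card]) O ?_ ?_ ?_ ?_ ?_
  · intro h
    obtain ⟨h, e⟩ := (mO _).1 h
    exact h1 (by simpa using e)
  · intro a ha
    obtain ⟨h, e⟩ := (mO _).1 ha
    apply Subtype.ext
    rw [SubgroupClass.coe_pow, ← e, conj_pow, h3]; simp
  · intro a ha hb
    obtain ⟨h, e⟩ := (mO _).1 ha
    obtain ⟨k, e'⟩ := (mO _).1 hb
    rw [InvMemClass.coe_inv, ← e] at e'
    exact hno (h⁻¹ * k) (by
      calc h⁻¹ * k * v * (h⁻¹ * k)⁻¹ = h⁻¹ * (k * v * k⁻¹) * h := by group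
        _ = v⁻¹ := by rw [e']; group)
  · rw [hcard]
    exact fun h => V.not_dvd_index (h.trans (index_dvd_of_le fun a ha =>
      mem_centralizer_singleton_iff.2 (hc a ha v hv)))
  · have hz : ((∏ a ∈ O, a : (V : Subgroup H)) : H) ∈ center H := by
      refine mem_center_iff.2 fun h => ?_
      have e : MulAut.conjNormal h (∏ a ∈ O, a : (V : Subgroup H)) = ∏ a ∈ O, a := by
        rw [map_prod]
        refine Finset.prod_equiv (MulAut.conjNormal h : MulAut (V : Subgroup H)).toEquiv
          (fun a => ?_) fun _ _ => rfl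
        rw [mO, mO]
        constructor
        · rintro ⟨k, e⟩
          exact ⟨h * k, by simp [← e, mul_assoc]⟩
        · rintro ⟨k, e⟩
          refine ⟨h⁻¹ * k, ?_⟩
          have e' : k * v * k⁻¹ = h * a * h⁻¹ := by simpa using e
          calc h⁻¹ * k * v * (h⁻¹ * k)⁻¹ = h⁻¹ * (k * v * k⁻¹) * h := by group
            _ = a := by rw [e']; group
      have e' := congrArg Subtype.val e
      rw [MulAut.conjNormal_apply] at e'
      exact mul_inv_eq_iff_eq_mul.1 e'
    have hb := H3.center_inf_commutator_inf_sylow_le V ⟨⟨hz, hle (Subtype.prop _)⟩, Subtype.prop _⟩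
    rw [commutator_eq_bot_iff_le_centralizer.2 fun a ha b hb => hc b hb a ha] at hb
    exact Subtype.ext hb

/-- A normal Sylow 3-subgroup inside the derived group: an element of order three with centralizer of
order at most nine is real. -/
theorem real_of_normal {H : Type*} [Group H] [Finite H] (P : Sylow 3 H)
    [hn : (P : Subgroup H).Normal] (hle : (P : Subgroup H) ≤ commutator H) {y : H}
    (hy : y ∈ (P : Subgroup H)) (h1 : y ≠ 1) (h3 : y ^ 3 = 1)
    (hC : Nat.card ↥(centralizer {y} ⊓ (P : Subgroup H)) ≤ 9) : ∃ h : H, h * y * h⁻¹ = y⁻¹ := by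
  haveI : Fact (Nat.Prime 3) := ⟨Nat.prime_three⟩
  by_cases hab : ∀ a ∈ (P : Subgroup H), ∀ b ∈ (P : Subgroup H), a * b = b * a
  · refine real_of_abelian P hab ?_ hle hy h1 h3
    rwa [inf_of_le_right fun a ha => mem_centralizer_singleton_iff.2 (hab a ha y hy)] at hC
  set D : Subgroup H := ⁅(P : Subgroup H), (P : Subgroup H)⁆ with hD
  have hDP : D ≤ P := commutator_le_left _ _
  have i9 : 9 ≤ D.relIndex P := by
    have := H4.sq_le_index_commutator P.isPGroup' fun h => hab fun a ha b hb =>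
      congrArg Subtype.val (h.commutative.is_comm.comm ⟨a, ha⟩ ⟨b, hb⟩)
    rw [hD, ← map_subtype_commutator, relIndex, subgroupOf, comap_map_eq_self_of_injective
      (P : Subgroup H).subtype_injective]
    exact this
  have e1 := H2.card_mul_relIndex_of_le hDP
  have e2 := H2.card_mul_relIndex_of_le (inf_le_right : centralizer {y} ⊓ (P : Subgroup H) ≤ P)
  rw [inf_relIndex_right, ← ncard_cls] at e2
  set C := {x | ∃ k ∈ (P : Subgroup H), k * y * k⁻¹ = x} with hCd
  have hsub : (fun x => y⁻¹ * x) '' C ⊆ D := by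
    rintro _ ⟨_, ⟨k, hk, rfl⟩, rfl⟩
    have := commutator_mem_commutator (inv_mem hy) hk
    simpa [commutatorElement_def, mul_assoc] using this
  have c1 : ((fun x => y⁻¹ * x) '' C).ncard = C.ncard :=
    Set.ncard_image_of_injective _ (mul_right_injective _)
  have c2 : (D : Set H).ncard = Nat.card D := (Nat.card_coe_set_eq _).symm
  have c3 := Set.ncard_le_ncard hsub
  have hpos : 0 < Nat.card D := Nat.card_pos
  have c4 : Nat.card D ≤ C.ncard := by nlinarith
  have heq : (fun x => y⁻¹ * x) '' C = D := Set.eq_of_subset_of_ncard_le hsub (by omega)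
  have hcl : ∀ d ∈ D, ∃ k : H, k * y * k⁻¹ = y * d := fun d hd => by
    obtain ⟨_, ⟨k, -, rfl⟩, e⟩ : d ∈ (fun x => y⁻¹ * x) '' C := heq ▸ hd
    exact ⟨k, by rw [← e]; simp⟩
  have i9' : D.relIndex P ≤ 9 := by
    rw [c1, c2] at c3
    nlinarith
  haveI : D.Normal := inferInstance
  let V := P.mapSurjective (QuotientGroup.mk'_surjective D)
  haveI : (V : Subgroup (H ⧸ D)).Normal := hn.map _ (QuotientGroup.mk'_surjective D)
  obtain ⟨h, e⟩ := real_of_abelian V (v := (y : H ⧸ D)) (by
      rintro _ ⟨a, ha, rfl⟩ _ ⟨b, hb, rfl⟩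
      rw [← map_mul, ← map_mul, QuotientGroup.mk'_apply, QuotientGroup.mk'_apply, QuotientGroup.eq]
      have := commutator_mem_commutator (inv_mem hb) (inv_mem ha)
      simpa [commutatorElement_def, mul_assoc] using this)
    (by
      have := relIndex_ker (P : Subgroup H) (QuotientGroup.mk' D)
      rw [QuotientGroup.ker_mk'] at this
      exact this.symm.le.trans i9')
    (by
      refine (map_mono hle).trans ?_
      rw [_root_.commutator_def, map_commutator]
      exact commutator_mono le_top le_top)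
    ⟨y, hy, rfl⟩
    (fun h => by
      obtain ⟨k, e⟩ := hcl _ (inv_mem ((QuotientGroup.eq_one_iff _).1 h))
      exact h1 (by simpa using e))
    (by rw [← QuotientGroup.mk_pow, h3]; rfl)
  obtain ⟨h, rfl⟩ := QuotientGroup.mk_surjective h
  have hd : y⁻¹ * (h * y⁻¹ * h⁻¹) ∈ D := by
    rw [← QuotientGroup.eq]
    have := congrArg (·⁻¹) e
    simp only [mul_inv_rev, inv_inv] at this
    simpa [mul_assoc] using this.symm
  obtain ⟨k, e'⟩ := hcl _ hd
  rw [mul_inv_cancel_left] at e'
  refine ⟨k⁻¹ * h, ?_⟩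
  calc k⁻¹ * h * y * (k⁻¹ * h)⁻¹ = k⁻¹ * (h * y⁻¹ * h⁻¹)⁻¹ * k := by group
    _ = y⁻¹ := by rw [← e']; group

theorem card_cent_le_of_surj {P T : Type*} [Group P] [Finite P] [Group T] (f : P →* T)
    (hf : Function.Surjective f) (y : P) :
    Nat.card (centralizer ({f y} : Set T)) ≤ Nat.card (centralizer ({y} : Set P)) := by
  refine le_trans (le_of_eq ?_) (H4.card_centralizer_quotient_le f.ker y)
  let e := QuotientGroup.quotientKerEquivOfSurjective f hf
  have he : ∀ x : P, e (x : P ⧸ f.ker) = f x := fun _ => rfl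
  refine (Nat.card_congr (e.toEquiv.subtypeEquiv fun a => ?_)).symm
  rw [mem_centralizer_singleton_iff, mem_centralizer_singleton_iff, ← he, ← e.injective.eq_iff,
    map_mul, map_mul]
  rfl

theorem two_mul_card_le {G : Type*} [Group G] [Finite G] {A B : Subgroup G} (h : A < B) :
    2 * Nat.card A ≤ Nat.card B := by
  have h1 := H2.card_lt_of_lt h
  obtain ⟨k, hk⟩ := card_dvd_of_le h.le
  have : 2 ≤ k := by
    by_contra h2
    have : k = 0 ∨ k = 1 := by omega
    rcases this with rfl | rfl <;> omega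
  rw [hk]; nlinarith

theorem cube_mul {P : Type*} [Group P] {a b w : P} (hw : ∀ g, g * w = w * g) (h3 : w ^ 3 = 1)
    (h : b * a = w * (a * b)) : (a * b) ^ 3 = a ^ 3 * b ^ 3 := by
  have h' : ∀ g, b * (a * g) = w * (a * (b * g)) := fun g => by
    rw [← mul_assoc, h]; simp only [mul_assoc]
  have hw' : ∀ g k, g * (w * k) = w * (g * k) := fun g k => by
    rw [← mul_assoc, hw, mul_assoc]
  have e : (a * b) ^ 3 = w ^ 3 * (a ^ 3 * b ^ 3) := by
    simp only [pow_succ, pow_zero, one_mul, mul_assoc]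
    rw [h', h' b, hw' b, h' (b * b)]
    simp only [hw' a]
  rw [e, h3, one_mul]

theorem wreath_core {P : Type*} [Group P] (A Z : Subgroup P) (hZ : Z ≤ center P)
    (hZ3 : ∀ z ∈ Z, z ^ 3 = 1) (hc : ∀ a ∈ A, ∀ b ∈ A, ⁅a, b⁆ ∈ Z) (h3 : ∀ a ∈ A, a ^ 3 ∈ Z)
    {y : P} (hy : ∀ a ∈ A, y * a * y⁻¹ ∈ A) (hy3 : y ^ 3 = 1) {s1 s2 s3 : P} (h1 : s1 ∈ A)
    (e2 : y * s1 * y⁻¹ = s1 * s2) (e3 : y * s2 * y⁻¹ = s2 * s3) : y * s3 = s3 * y := by
  have cen : ∀ z ∈ Z, ∀ g, g * z = z * g := fun z hz g => mem_center_iff.1 (hZ hz) g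
  have m : ∀ {a b : P}, a ∈ A → y * a * y⁻¹ = a * b → b ∈ A := fun ha e =>
    (A.mul_mem_cancel_left ha).1 (e ▸ hy _ ha)
  have h2 := m h1 e2
  have h3' := m h2 e3
  obtain ⟨s4, e4⟩ : ∃ s4, y * s3 * y⁻¹ = s3 * s4 := ⟨s3⁻¹ * (y * s3 * y⁻¹), by group⟩
  have cub : ∀ a ∈ A, ∀ b ∈ A, (a * b) ^ 3 = a ^ 3 * b ^ 3 := fun a ha b hb =>
    cube_mul (cen _ (hc b hb a ha)) (hZ3 _ (hc b hb a ha)) (by rw [commutatorElement_def]; group)
  have c0 : ∀ {a b : P}, a ∈ A → y * a * y⁻¹ = a * b → b ^ 3 = 1 := fun {a b} ha e => by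
    have := cub a ha b (m ha e)
    rw [← e, conj_pow, cen _ (h3 a ha), mul_inv_cancel_right] at this
    exact (mul_eq_left.1 this.symm)
  have rel : s2 * (s2 * s3) * (s2 * s3 * (s3 * s4)) = 1 := by
    have : y ^ 3 * s1 * (y ^ 3)⁻¹ = s1 * (s2 * (s2 * s3) * (s2 * s3 * (s3 * s4))) := by
      calc y ^ 3 * s1 * (y ^ 3)⁻¹ = y * (y * (y * s1 * y⁻¹) * y⁻¹) * y⁻¹ := by
            rw [pow_three']; group
        _ = y * ((y * s1 * y⁻¹) * (y * s2 * y⁻¹)) * y⁻¹ := by
          conv_lhs => rw [e2]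
          group
        _ = (y * s1 * y⁻¹) * (y * s2 * y⁻¹) * ((y * s2 * y⁻¹) * (y * s3 * y⁻¹)) := by
          conv_lhs => rw [e2, e3]
          group
        _ = _ := by rw [e2, e3, e4]; group
    rw [hy3, one_mul, inv_one, mul_one] at this
    exact mul_eq_left.1 this.symm
  set w := ⁅s3, s2⁆ with hw
  have hwZ : w ∈ Z := hc _ h3' _ h2
  have r4 : w * s4 = 1 := by
    have e : s3 * s2 = w * (s2 * s3) := by rw [hw, commutatorElement_def]; group
    calc w * s4 = w * (s2 ^ 3 * s3 ^ 3) * s4 := by rw [c0 h1 e2, c0 h2 e3]; simp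
      _ = s2 * s2 * (w * (s2 * s3)) * (s3 * (s3 * s4)) := by
        rw [← mul_assoc (s2 * s2), cen w hwZ (s2 * s2), pow_three, pow_three]
        simp only [mul_assoc]
      _ = 1 := by rw [← e, ← rel]; group
  have h4Z : s4 ∈ Z := by
    rw [eq_inv_of_mul_eq_one_right r4]; exact inv_mem hwZ
  have inv13 : ⁅s1 * s2, s3 * s4⁆ = ⁅s1, s3⁆ := by
    rw [← e2, ← e4, ← conjugate_commutatorElement, cen _ (hc _ h1 _ h3'), mul_inv_cancel_right]
  have h23 : ⁅s2, s3⁆ = 1 := by
    have e : ⁅s1 * s2, s3 * s4⁆ = s1 * ⁅s2, s3⁆ * s1⁻¹ * ⁅s1, s3⁆ := by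
      calc ⁅s1 * s2, s3 * s4⁆ = s1 * s2 * s3 * (s4 * ((s1 * s2)⁻¹ * s4⁻¹)) * s3⁻¹ := by
            rw [commutatorElement_def]; group
        _ = _ := by
          rw [cen _ (inv_mem h4Z), mul_inv_cancel_left, commutatorElement_def,
            commutatorElement_def]; group
    rw [inv13, cen _ (hc _ h2 _ h3'), mul_inv_cancel_right] at e
    exact mul_eq_right.1 e.symm
  have hw1 : w = 1 := by rw [hw, ← commutatorElement_inv, h23, inv_one]
  rw [hw1, one_mul] at r4
  rw [r4, mul_one] at e4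
  exact mul_inv_eq_iff_eq_mul.1 e4

theorem inj_of_wreath {T : Type*} [Group T] [Finite T] (hT : Nat.card T = 81) (B : Subgroup T)
    (hB : Nat.card B = 27) (hBc : ∀ a ∈ B, ∀ b ∈ B, a * b = b * a) (hB3 : ∀ a ∈ B, a ^ 3 = 1)
    (n : ℕ) : ∀ (P : Type u) [Group P] [Finite P], Nat.card P = n → IsPGroup 3 P →
      ∀ f : P →* T, Function.Surjective f → ∀ y : P, y ^ 3 = 1 →
        Nat.card (centralizer ({y} : Set P)) ≤ 9 → Function.Injective f := by
  haveI : Fact (Nat.Prime 3) := ⟨Nat.prime_three⟩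
  induction n using Nat.strong_induction_on with
  | _ n ih =>
  intro P _ _ hn hP f hf y hy3 hC
  rw [← MonoidHom.ker_eq_bot_iff]
  by_contra hk
  obtain ⟨z, hzk, hzc, hz3⟩ := H3.exists_mem_center_orderOf_eq hP f.ker hk
  set Z := zpowers z with hZ
  have hZc : Z ≤ center P := zpowers_le.2 hzc
  haveI : Z.Normal := ⟨fun a ha g => by
    rwa [mem_center_iff.1 (hZc ha) g, mul_inv_cancel_right]⟩
  have cZ : Nat.card Z = 3 := by rw [Nat.card_zpowers, hz3]
  have hker : ∀ a, f a = 1 → a ∈ Z := fun a ha => by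
    have e := Z.card_mul_index
    have := ih (Nat.card (P ⧸ Z)) (by
        have : 0 < Nat.card (P ⧸ Z) := Nat.card_pos
        rw [cZ, index] at e
        omega) (P ⧸ Z) rfl (hP.to_quotient Z) (QuotientGroup.lift Z f (zpowers_le.2 hzk))
      (fun t => by obtain ⟨x, rfl⟩ := hf t; exact ⟨x, rfl⟩) (y : P ⧸ Z)
      (by rw [← QuotientGroup.mk_pow, hy3]; rfl) ((H4.card_centralizer_quotient_le Z y).trans hC)
    exact (QuotientGroup.eq_one_iff _).1 (this (a₂ := 1) (by simpa using ha))
  haveI : B.Normal := normal_of_index_eq_minFac_card (by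
    have := B.card_mul_index
    rw [hT] at this ⊢
    rw [hB] at this
    norm_num
    omega)
  have hCT := (card_cent_le_of_surj f hf y).trans hC
  have hyB : f y ∉ B := fun h => by
    have := card_le_of_le (show B ≤ centralizer {f y} from fun a ha =>
      mem_centralizer_singleton_iff.2 (hBc a ha _ h))
    omega
  have c4 : Nat.card ↥(centralizer {f y} ⊓ B) ≤ 4 := by
    have := two_mul_card_le (show centralizer {f y} ⊓ B < centralizer {f y} from
      lt_of_le_of_ne inf_le_left fun h => hyB (inf_eq_left.1 h (mem_centralizer_singleton_iff.2 rfl)))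
    omega
  obtain ⟨t, ht, hts⟩ : ∃ t ∈ B, ⁅f y, t⁆ ∉ centralizer {f y} ⊓ B := by
    by_contra h
    push Not at h
    have h1 := H4.relIndex_centralizer_le h
    have h2 := H2.card_mul_relIndex_of_le (inf_le_right : centralizer {f y} ⊓ B ≤ B)
    rw [inf_relIndex_right] at h2
    nlinarith
  obtain ⟨s1, rfl⟩ := hf t
  have nA : ∀ a ∈ B.comap f, y * a * y⁻¹ ∈ B.comap f := fun a ha => Normal.conj_mem inferInstance a ha y
  have m2 : s1⁻¹ * (y * s1 * y⁻¹) ∈ B.comap f := mul_mem (inv_mem ht) (nA _ ht)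
  set s2 := s1⁻¹ * (y * s1 * y⁻¹) with hs2
  have m3 : s2⁻¹ * (y * s2 * y⁻¹) ∈ B.comap f := mul_mem (inv_mem m2) (nA _ m2)
  set s3 := s2⁻¹ * (y * s2 * y⁻¹) with hs3
  have key := wreath_core (B.comap f) Z hZc (fun a ha => by
      rw [← cZ]; exact congrArg Subtype.val (pow_card_eq_one' (x := (⟨a, ha⟩ : Z))))
    (fun a ha b hb => hker _ (by
      rw [map_commutatorElement, commutatorElement_eq_one_iff_mul_comm]; exact hBc _ ha _ hb))
    (fun a ha => hker _ (by rw [map_pow]; exact hB3 _ ha)) nA hy3 (s1 := s1) (s2 := s2) (s3 := s3) ht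
    (by rw [hs2]; group) (by rw [hs3]; group)
  have h3Z : s3 ∉ Z := fun h => hts (by
    have e : ⁅f y, f s1⁆ = f s2 := by
      have := hBc _ (inv_mem ht) _ (nA _ ht)
      rw [hs2, map_mul, map_inv, this, commutatorElement_def]
      simp
    rw [e]
    refine ⟨mem_centralizer_singleton_iff.2 ?_, m2⟩
    have h1 : f s3 = 1 := zpowers_le.2 hzk h
    rw [hs3] at h1
    simp only [map_mul, map_inv] at h1
    rw [inv_mul_eq_one] at h1
    exact (mul_inv_eq_iff_eq_mul.1 h1.symm).symm)
  have l1 := two_mul_card_le (show Z < centralizer {y} ⊓ B.comap f from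
    lt_of_le_of_ne (fun a ha => ⟨mem_centralizer_singleton_iff.2 (mem_center_iff.1 (hZc ha) y).symm, by
      change f a ∈ B
      rw [show f a = 1 from zpowers_le.2 hzk ha]; exact one_mem _⟩)
      fun h => h3Z (h ▸ ⟨mem_centralizer_singleton_iff.2 key.symm, m3⟩))
  have l2 := two_mul_card_le (show centralizer {y} ⊓ B.comap f < centralizer {y} from
    lt_of_le_of_ne inf_le_left fun h => hyB (inf_eq_left.1 h (mem_centralizer_singleton_iff.2 rfl)))
  omega

theorem three_smul_zmod : ∀ x : ZMod 3, 3 • x = 0 := by decide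

theorem exists_base (T : Sylow 3 (Equiv.Perm (Fin 9))) : Nat.card T = 81 ∧
    ∃ B : Subgroup T, Nat.card B = 27 ∧ (∀ a ∈ B, ∀ b ∈ B, a * b = b * a) ∧ ∀ a ∈ B, a ^ 3 = 1 := by
  haveI : Fact (Nat.Prime 3) := ⟨Nat.prime_three⟩
  constructor
  · rw [T.card_eq_multiplicity, Nat.card_perm, Nat.card_fin,
      show (9 : ℕ).factorial = 3 ^ 4 * 4480 by norm_num [Nat.factorial],
      Nat.factorization_mul (by norm_num) (by norm_num), Nat.Prime.factorization_pow Nat.prime_three]
    simp [Nat.factorization_eq_zero_of_not_dvd (show ¬ 3 ∣ 4480 by norm_num)]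
  let φ : Multiplicative (Fin 3 → ZMod 3) →* Equiv.Perm (Fin 3 × ZMod 3) :=
    { toFun := fun v => Equiv.prodCongrRight fun i => Equiv.addLeft (v.toAdd i)
      map_one' := by ext <;> simp
      map_mul' := fun a b => by ext <;> simp [add_assoc] }
  have hφ : Function.Injective φ := (injective_iff_map_eq_one φ).2 fun v hv => by
    ext i
    have := congrArg (fun σ : Equiv.Perm (Fin 3 × ZMod 3) => (σ (i, 0)).2) hv
    simpa [φ] using this
  let e : Fin 3 × ZMod 3 ≃ Fin 9 := Fintype.equivFinOfCardEq (by simp)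
  let ψ := e.permCongrHom.toMonoidHom.comp φ
  have hψ : Function.Injective ψ := e.permCongrHom.injective.comp hφ
  have h27 : Nat.card (Multiplicative (Fin 3 → ZMod 3)) = 3 ^ 3 := by simp
  have hp : IsPGroup 3 ψ.range := (IsPGroup.of_card h27).of_surjective _ ψ.rangeRestrict_surjective
  obtain ⟨g, hg⟩ := H3.exists_conj_mem_sylow T hp
  let χ : Multiplicative (Fin 3 → ZMod 3) →* T :=
    ((MulAut.conj g).toMonoidHom.comp ψ).codRestrict _ fun v => hg _ ⟨v, rfl⟩
  have hχ : Function.Injective χ := fun a b h =>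
    hψ ((MulAut.conj g).injective (congrArg Subtype.val h))
  refine ⟨χ.range, (Nat.card_congr (MonoidHom.ofInjective hχ).toEquiv).symm.trans h27, ?_, ?_⟩
  · rintro _ ⟨a, rfl⟩ _ ⟨b, rfl⟩
    rw [← map_mul, ← map_mul, mul_comm]
  · rintro _ ⟨a, rfl⟩
    rw [← map_pow, show a ^ 3 = 1 from ?_, map_one]
    ext i
    simp only [toAdd_pow, Pi.smul_apply, toAdd_one, Pi.zero_apply]
    exact three_smul_zmod _

/-- Perfect group, `y` of order three in the Sylow 3-subgroup `P` with `|C_P(y)| ≤ 9`, not inverted in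
`N(P)`: then `P` is the wreath product. -/
theorem wreath_of_small {G : Type u} [Group G] [Finite G] (hG : commutator G = ⊤) (P : Sylow 3 G)
    {y : G} (hy : y ∈ (P : Subgroup G)) (h1 : y ≠ 1) (h3 : y ^ 3 = 1)
    (hC : Nat.card ↥(centralizer {y} ⊓ (P : Subgroup G)) ≤ 9)
    (hr : ∀ n ∈ normalizer ((P : Subgroup G) : Set G), n * y * n⁻¹ ≠ y⁻¹) :
    ∃ T : Sylow 3 (Equiv.Perm (Fin 9)),
      Nonempty ((P : Subgroup G) ≃* (T : Subgroup (Equiv.Perm (Fin 9)))) := by
  haveI : Fact (Nat.Prime 3) := ⟨Nat.prime_three⟩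
  set N := normalizer ((P : Subgroup G) : Set G) with hN
  by_cases h : (P : Subgroup G) ⊓ commutator G = (P : Subgroup G) ⊓ ⁅N, N⁆
  · exfalso
    rw [hG, inf_top_eq] at h
    have hPN : (P : Subgroup G) ≤ N := le_normalizer
    haveI : ((P.subtype hPN : Sylow 3 N) : Subgroup N).Normal := normal_in_normalizer
    obtain ⟨n, e⟩ := real_of_normal (P.subtype hPN) (fun a ha => by
        have := (h.le ha).2
        rw [← map_subtype_commutator] at this
        obtain ⟨b, hb, e⟩ := this
        rwa [← show b = a from Subtype.ext e]) (y := ⟨y, hPN hy⟩) hy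
      (fun h => h1 (congrArg Subtype.val h)) (Subtype.ext h3) (by
        refine le_trans (Nat.card_le_card_of_injective
          (fun a => (⟨a.1.1, mem_centralizer_singleton_iff.2 (congrArg Subtype.val
            (mem_centralizer_singleton_iff.1 a.2.1)), a.2.2⟩ :
              ↥(centralizer {y} ⊓ (P : Subgroup G)))) fun a b h => ?_) hC
        have h' := congrArg Subtype.val h
        exact Subtype.ext (Subtype.ext h'))
    exact hr n n.2 (congrArg Subtype.val e)
  · obtain ⟨T, f, hf⟩ := S2807.result P h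
    obtain ⟨hT, B, hB, hBc, hB3⟩ := exists_base T
    refine ⟨T, ⟨MulEquiv.ofBijective f ⟨inj_of_wreath hT B hB hBc hB3 _ _ rfl P.isPGroup' f hf
      ⟨y, hy⟩ (Subtype.ext h3) ?_, hf⟩⟩⟩
    refine le_trans (Nat.card_le_card_of_injective
      (fun a => (⟨a.1.1, mem_centralizer_singleton_iff.2 (congrArg Subtype.val
        (mem_centralizer_singleton_iff.1 a.2)), a.1.2⟩ :
          ↥(centralizer {y} ⊓ (P : Subgroup G)))) fun a b h => ?_) hC
    have h' := congrArg Subtype.val h
    exact Subtype.ext (Subtype.ext h')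

end Cfsg.Agent.H61.Fx
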