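/-
Simple groups of fixity at most four whose point stabilizers have odd order divisible by three.
-/
import Cfsg.Agent.H61.Fix3A
import Cfsg.Prelude.Def_Transfer
import Cfsg.Agent.H3.Frobenius
import Cfsg.Agent.H3.Fusion
import Cfsg.Agent.H92.SylIn
import Mathlib.GroupTheory.GroupAction.SubMulAction.OfStabilizer
import Mathlib.GroupTheory.GroupAction.FixingSubgroup

set_option autoImplicit false
set_option linter.unusedSectionVars false
set_option linter.style.haveILetI false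

namespace Cfsg.Agent.H61.Fx

open Subgroup MulAction
open scoped Pointwise

universe u

variable {G : Type u} [Group G] [Finite G] {Ω : Type*} [MulAction G Ω] [Finite Ω]

/-- Fixed points of a `p`-subgroup on an invariant set. -/
theorem inv_modEq {p : ℕ} [Fact p.Prime] {Q : Subgroup G} (hQ : IsPGroup p Q) {Δ : Set Ω}
    (h : Q ≤ stabilizer G Δ) : Δ.ncard ≡ {w ∈ Δ | ∀ q ∈ Q, q • w = w}.ncard [MOD p] := by
  let S : SubMulAction Q Ω := ⟨Δ, fun q _ hw => (mem_stabilizer_set.1 (h q.2) _).2 hw⟩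
  have := hQ.card_modEq_card_fixedPoints S
  rw [← Nat.card_coe_set_eq, ← Nat.card_coe_set_eq]
  have e : fixedPoints Q S ≃ {w ∈ Δ | ∀ q ∈ Q, q • w = w} :=
    { toFun := fun w => ⟨w.1.1, w.1.2, fun q hq => congrArg Subtype.val (w.2 ⟨q, hq⟩)⟩
      invFun := fun w => ⟨⟨w.1, w.2.1⟩, fun q => Subtype.ext (w.2.2 q q.2)⟩
      left_inv := fun _ => rfl
      right_inv := fun _ => rfl }
  rw [← Nat.card_congr e]
  exact this

/-- The action of the setwise stabilizer on the set. -/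
def act (Δ : Set Ω) : stabilizer G Δ →* Equiv.Perm Δ := toPermHom _ _

theorem act_eq_iff {Δ : Set Ω} (a b : stabilizer G Δ) :
    act Δ a = act Δ b ↔ ∀ w ∈ Δ, (a : G) • w = (b : G) • w :=
  ⟨fun h w hw => congrArg Subtype.val (Equiv.congr_fun h ⟨w, hw⟩),
    fun h => Equiv.ext fun w => Subtype.ext (h w w.2)⟩

theorem act_eq_one {Δ : Set Ω} (a : stabilizer G Δ) :
    act Δ a = 1 ↔ (a : G) ∈ fixingSubgroup G Δ := by
  rw [← map_one (act (G := G) Δ), act_eq_iff, mem_fixingSubgroup_iff]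
  simp

theorem fix_le_stab (Δ : Set Ω) : fixingSubgroup G Δ ≤ stabilizer G Δ := fun g hg =>
  (mem_stabilizer_set' Δ.toFinite).2 fun b hb => by
    rwa [(mem_fixingSubgroup_iff G).1 hg b hb]

theorem card_map_act {Δ : Set Ω} {R : Subgroup G} (h : R ≤ stabilizer G Δ) :
    Nat.card ((R.subgroupOf (stabilizer G Δ)).map (act Δ)) = (fixingSubgroup G Δ).relIndex R := by
  rw [← relIndex_ker, show (act Δ).ker = (fixingSubgroup G Δ).subgroupOf (stabilizer G Δ) from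
    Subgroup.ext fun a => act_eq_one a, relIndex_subgroupOf h]

theorem relIndex_dvd {Δ : Set Ω} {R : Subgroup G} (h : R ≤ stabilizer G Δ) :
    (fixingSubgroup G Δ).relIndex R ∣ Δ.ncard.factorial := by
  rw [← card_map_act h, ← Nat.card_coe_set_eq, ← Nat.card_perm]
  exact card_subgroup_dvd_card _

theorem conj_mem_fix {Δ : Set Ω} {m x : G} (hm : m ∈ stabilizer G Δ)
    (hx : x ∈ fixingSubgroup G Δ) : m * x * m⁻¹ ∈ fixingSubgroup G Δ := by
  have := (act_eq_one (⟨m, hm⟩ * ⟨x, fix_le_stab Δ hx⟩ * ⟨m, hm⟩⁻¹)).1 (by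
    rw [map_mul, map_mul, (act_eq_one ⟨x, fix_le_stab Δ hx⟩).2 hx]; simp)
  exact this

theorem card_le_of_free {Q : Subgroup G} {Δ : Set Ω} {b : Ω} (h : ∀ q ∈ Q, q • b ∈ Δ)
    (hf : ∀ q ∈ Q, q • b = b → q = 1) : Nat.card Q ≤ Δ.ncard := by
  rw [← Nat.card_coe_set_eq]
  refine Nat.card_le_card_of_injective (fun q => ⟨(q : G) • b, h q q.2⟩) fun q r e => ?_
  have e' : (q : G) • b = (r : G) • b := congrArg Subtype.val e
  have := hf _ (mul_mem (inv_mem r.2) q.2) (by rw [mul_smul, e', inv_smul_smul])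
  exact Subtype.ext (inv_mul_eq_one.1 this).symm

theorem mem_stab_of_conj {x g : G} (h : fixedBy Ω (g * x * g⁻¹) = fixedBy Ω x) :
    g ∈ stabilizer G (fixedBy Ω x) := by
  rw [mem_stabilizer_iff, smul_fixedBy, h]

/-- If the conjugates in `P` of a central element `z` of `P` only arise from `M`, then `M` controls
the fusion of elements of `P`. -/
theorem ctrl {p : ℕ} [Fact p.Prime] (P : Sylow p G) {M : Subgroup G} {z : G}
    (hz : z ∈ (P : Subgroup G)) (hc : ∀ a ∈ (P : Subgroup G), a * z = z * a)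
    (hM : ∀ g, g * z * g⁻¹ ∈ (P : Subgroup G) → g ∈ M) {u g : G} (hu : u ∈ (P : Subgroup G))
    (hg : g * u * g⁻¹ ∈ (P : Subgroup G)) : ∃ m ∈ M, m * u * m⁻¹ = g * u * g⁻¹ := by
  have pz : ∀ k : G, IsPGroup p (zpowers (k * z * k⁻¹)) := fun k => by
    have := (P.isPGroup'.to_le (zpowers_le.2 hz)).map (MulAut.conj k).toMonoidHom
    rwa [MonoidHom.map_zpowers] at this
  obtain ⟨Q, hQ, hzQ⟩ := H92.exists_sylIn_ge (p := p) (Q := zpowers z)
    (H := centralizer {g * u * g⁻¹}) (zpowers_le.2 (mem_centralizer_singleton_iff.2 (hc _ hg).symm))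
    (P.isPGroup'.to_le (zpowers_le.2 hz))
  obtain ⟨c, hcC, hc'⟩ := hQ.exists_conj (Q := zpowers (g * z * g⁻¹))
    (zpowers_le.2 (mem_centralizer_singleton_iff.2 (by rw [conj_mul, conj_mul, hc u hu]))) (pz g)
  obtain ⟨k, hk⟩ := H3.exists_conj_mem_sylow P hQ.pgroup
  have h1 := hM k (hk z (hzQ (mem_zpowers z)))
  have h2 := hM (k * (c * g)) (by
    have : _ ∈ (P : Subgroup G) := hk _ (hc' _ (mem_zpowers _))
    simpa only [mul_inv_rev, mul_assoc] using this)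
  refine ⟨c * g, (M.mul_mem_cancel_left h1).1 h2, ?_⟩
  calc c * g * u * (c * g)⁻¹ = c * (g * u * g⁻¹) * c⁻¹ := by group
    _ = _ := by rw [mem_centralizer_singleton_iff.1 hcC, mul_inv_cancel_right]

theorem se_of {p : ℕ} [hp : Fact p.Prime] (P : Sylow p G) {H : Subgroup G}
    (hPH : (P : Subgroup G) ≤ H)
    (h : ∀ y ∈ (P : Subgroup G), y ≠ 1 → ∀ g : G, g * y * g⁻¹ ∈ (P : Subgroup G) → g ∈ H) (g : G)
    (hg : g ∉ H) : ¬ p ∣ Nat.card ↥(H ⊓ H.map (MulAut.conj g).toMonoidHom) := fun hd => by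
  obtain ⟨⟨_, hy, x, hx, rfl⟩, ho⟩ := exists_prime_orderOf_dvd_card' p hd
  have hS : H92.SylIn p (P : Subgroup G) H := (H92.sylIn_top P).mono hPH le_top
  have ho' : orderOf (MulAut.conj g x) = p := by rw [← ho]; exact (Subgroup.orderOf_mk _ _).symm
  have ox : orderOf x = p := by rwa [MulEquiv.orderOf_eq] at ho'
  obtain ⟨a, ha, h1⟩ := hS.exists_conj (zpowers_le.2 hx)
    (IsPGroup.of_card (n := 1) (by rw [Nat.card_zpowers, ox, pow_one]))
  obtain ⟨b, hb, h2⟩ := hS.exists_conj (zpowers_le.2 hy)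
    (IsPGroup.of_card (n := 1) (by rw [Nat.card_zpowers, pow_one]; exact ho'))
  have := h _ (h1 x (mem_zpowers x)) (fun e => by
    rw [show x = 1 by simpa using e, orderOf_one] at ox; exact hp.out.one_lt.ne ox) (b * g * a⁻¹) (by
      have := h2 _ (mem_zpowers _)
      simpa [mul_assoc] using this)
  exact hg ((H.mul_mem_cancel_left hb).1 ((H.mul_mem_cancel_right (inv_mem ha)).1 this))

theorem odd_of_stab (h2 : ∀ t : G, orderOf t = 2 → ∀ b : Ω, t • b ≠ b) {Δ : Set Ω} (ho : Odd Δ.ncard)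
    {m : G} (hm : m ∈ stabilizer G Δ) : Odd (orderOf m) := by
  haveI : Fact (Nat.Prime 2) := ⟨Nat.prime_two⟩
  by_contra he
  rw [Nat.not_odd_iff_even, even_iff_two_dvd, ← Nat.card_zpowers] at he
  obtain ⟨⟨t, ht⟩, ot⟩ := exists_prime_orderOf_dvd_card' 2 he
  rw [Subgroup.orderOf_mk] at ot
  have := inv_modEq (p := 2) (Q := zpowers t)
    (IsPGroup.of_card (n := 1) (by rw [Nat.card_zpowers, ot, pow_one]))
    (zpowers_le.2 (zpowers_le.2 hm ht))
  rw [show {w ∈ Δ | ∀ q ∈ zpowers t, q • w = w} = ∅ from Set.eq_empty_of_forall_notMem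
    fun w hw => h2 t ot w (hw.2 t (mem_zpowers t)), Set.ncard_empty] at this
  exact (Nat.not_even_iff_odd.2 ho) (even_iff_two_dvd.2 ((Nat.modEq_zero_iff_dvd).1 this))

theorem eq_one_of_odd_inv {H : Type*} [Group H] {m v : H} {n : ℕ} (hn : Odd n) (hm : m ^ n = 1)
    (h : m * v * m⁻¹ = v⁻¹) (h3 : v ^ 3 = 1) : v = 1 := by
  obtain ⟨j, rfl⟩ := hn
  have c : Commute (m ^ 2) v := by
    have : m ^ 2 * v * (m ^ 2)⁻¹ = v := by
      calc m ^ 2 * v * (m ^ 2)⁻¹ = m * (m * v * m⁻¹) * m⁻¹ := by rw [pow_two]; group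
        _ = (m * v * m⁻¹)⁻¹ := by conv_lhs => rw [h]
                                  group
        _ = v := by rw [h, inv_inv]
    exact mul_inv_eq_iff_eq_mul.1 this
  have c' : Commute m⁻¹ v := by
    rw [pow_succ, pow_mul] at hm
    rw [← eq_inv_of_mul_eq_one_left hm]
    exact c.pow_left j
  have e : v = v⁻¹ := by
    rw [← h, (Commute.inv_left_iff.1 c').eq, mul_inv_cancel_right]
  rwa [pow_three, ← mul_assoc, mul_eq_one_iff_eq_inv.2 e, one_mul] at h3

theorem card_le_nine {Q : Subgroup G} (hQ : IsPGroup 3 Q) (h : Nat.card Q < 27) : Nat.card Q ≤ 9 := by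
  haveI : Fact (Nat.Prime 3) := ⟨Nat.prime_three⟩
  obtain ⟨n, hn⟩ := hQ.exists_card_eq
  rw [hn] at h ⊢
  have : n < 3 := (Nat.pow_lt_pow_iff_right (by norm_num)).1 (show 3 ^ n < 3 ^ 3 from h)
  exact Nat.pow_le_pow_right (n := 3) (by norm_num) (show n ≤ 2 by omega)

theorem se_or_wreath [IsSimpleGroup G] (hna : ¬ IsMulCommutative G) [FaithfulSMul G Ω]
    (htrans : IsPretransitive G Ω) (hfix : ∀ g : G, g ≠ 1 → Nat.card (fixedBy Ω g) ≤ 4)
    (P : Sylow 3 G) (a : Ω) (hodd : Odd (Nat.card (stabilizer G a)))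
    (h3 : 3 ∣ Nat.card (stabilizer G a)) :
    (∃ H : Subgroup G, H ≠ ⊤ ∧ 3 ∣ Nat.card H ∧
      ∀ g : G, g ∉ H → ¬ 3 ∣ Nat.card ↥(H ⊓ H.map (MulAut.conj g).toMonoidHom)) ∨
    ∃ T : Sylow 3 (Equiv.Perm (Fin 9)),
      Nonempty ((P : Subgroup G) ≃* (T : Subgroup (Equiv.Perm (Fin 9)))) := by
  haveI : Fact (Nat.Prime 3) := ⟨Nat.prime_three⟩
  have hG : commutator G = ⊤ := by
    refine (inferInstance : (commutator G).Normal).eq_bot_or_eq_top.resolve_left fun h => hna ?_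
    exact ⟨⟨fun x y => commutatorElement_eq_one_iff_mul_comm.1 (mem_bot.1
      (h ▸ commutator_mem_commutator (mem_top x) (mem_top y)))⟩⟩
  have h2 : ∀ t : G, orderOf t = 2 → ∀ b : Ω, t • b ≠ b := fun t ht b e => by
    obtain ⟨g, rfl⟩ := htrans.exists_smul_eq a b
    have hm : g⁻¹ * t * g⁻¹⁻¹ ∈ stabilizer G a := by
      rw [mem_stabilizer_iff, inv_inv, mul_smul, mul_smul, e, inv_smul_smul]
    have := orderOf_dvd_natCard (⟨_, hm⟩ : stabilizer G a)
    rw [Subgroup.orderOf_mk, show orderOf (g⁻¹ * t * g⁻¹⁻¹) = 2 from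
      ((MulAut.conj g⁻¹).orderOf_eq t).trans ht] at this
    exact (Nat.not_even_iff_odd.2 hodd) (even_iff_two_dvd.2 this)
  -- a nontrivial element of `P` with the largest number of fixed points
  obtain ⟨⟨x0, hx0⟩, o0⟩ := exists_prime_orderOf_dvd_card' 3 h3
  rw [Subgroup.orderOf_mk] at o0
  obtain ⟨g0, hg0⟩ := H3.exists_conj_mem_sylow P (Q := zpowers x0)
    (IsPGroup.of_card (n := 1) (by rw [Nat.card_zpowers, o0, pow_one]))
  have n0 : g0 * x0 * g0⁻¹ ≠ 1 := fun e => by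
    rw [show x0 = 1 by simpa using e, orderOf_one] at o0; omega
  obtain ⟨x, ⟨hx, hx1⟩, hmax⟩ := Set.exists_max_image {x : G | x ∈ (P : Subgroup G) ∧ x ≠ 1}
    (fun x => (fixedBy Ω x).ncard) (Set.toFinite _) ⟨_, hg0 _ (mem_zpowers x0), n0⟩
  set k := (fixedBy Ω x).ncard with hk
  have k4 : k ≤ 4 := by rw [hk, ← Nat.card_coe_set_eq]; exact hfix x hx1
  have k1 : 0 < k := lt_of_lt_of_le ((Set.ncard_pos (Set.toFinite _)).2 ⟨g0 • a, by
    rw [← smul_fixedBy]; exact Set.smul_mem_smul_set hx0⟩) (hmax _ ⟨hg0 _ (mem_zpowers x0), n0⟩)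
  have F1 : ∀ {Δ : Set Ω}, Δ.ncard = k → ∀ y ∈ (P : Subgroup G), y ≠ 1 → y ∈ fixingSubgroup G Δ →
      fixedBy Ω y = Δ := fun {Δ} hΔ y hy h1 h =>
    (Set.eq_of_subset_of_ncard_le ((mem_fixingSubgroup_iff_subset_fixedBy G).1 h)
      (hΔ ▸ hmax y ⟨hy, h1⟩)).symm
  by_cases hA : ∃ Δ : Set Ω, Δ.ncard = k ∧ (P : Subgroup G) ≤ fixingSubgroup G Δ
  · obtain ⟨Δ, hΔ, hP⟩ := hA
    have e := F1 hΔ x hx hx1 (hP hx)
    refine Or.inl ⟨stabilizer G Δ, fun h => hx1 ?_, ?_, se_of P (hP.trans (fix_le_stab Δ))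
      fun y hy h1 g hg => ?_⟩
    · obtain ⟨b, hb⟩ := (Set.ncard_pos Δ.toFinite).1 (hΔ ▸ k1)
      refine FaithfulSMul.eq_of_smul_eq_smul (α := Ω) fun w => ?_
      obtain ⟨g, rfl⟩ := htrans.exists_smul_eq b w
      rw [one_smul]
      exact (mem_fixingSubgroup_iff G).1 (hP hx) _ ((mem_stabilizer_set.1 (h ▸ mem_top g) b).2 hb)
    · refine dvd_trans ?_ (card_dvd_of_le (hP.trans (fix_le_stab Δ)))
      exact P.isPGroup'.card_eq_or_dvd.resolve_left fun h => hx1 (by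
        rwa [card_eq_one.1 h, mem_bot] at hx)
    · rw [← F1 hΔ y hy h1 (hP hy)]
      exact mem_stab_of_conj (by
        rw [F1 hΔ y hy h1 (hP hy), F1 hΔ _ hg (by simpa using h1) (hP hg)])
  right
  set Δ := fixedBy Ω x with hΔ
  set K := fixingSubgroup G Δ with hK
  set M := stabilizer G Δ with hM
  have hxK : x ∈ K := (mem_fixingSubgroup_iff_subset_fixedBy G).2 subset_rfl
  have hPK : ¬ (P : Subgroup G) ≤ K := fun h => hA ⟨Δ, rfl, h⟩
  have pR : IsPGroup 3 ↥((P : Subgroup G) ⊓ M) := P.isPGroup'.to_le inf_le_left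
  have i3 : K.relIndex (P ⊓ M) = 3 ∧ 3 ≤ k := by
    have h1 : K.relIndex (P ⊓ M) ∣ k.factorial := relIndex_dvd inf_le_right
    obtain ⟨j, hj⟩ := pR.index (K.subgroupOf _)
    have hne : K.relIndex (P ⊓ M) ≠ 1 := fun h => by
      obtain ⟨g, ⟨hg, hgn⟩, hg'⟩ := SetLike.exists_of_lt (H3.lt_inf_normalizer_of_lt P.isPGroup'
        (lt_of_le_of_ne (inf_le_left : (P : Subgroup G) ⊓ K ≤ P) fun e => hPK (inf_eq_left.1 e)))
      have := (mem_normalizer_iff.1 hgn x).1 ⟨hx, hxK⟩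
      exact hg' ⟨hg, relIndex_eq_one.1 h ⟨hg, mem_stab_of_conj
        (F1 rfl _ this.1 (by simpa using hx1) this.2)⟩⟩
    rw [relIndex, hj] at h1 hne ⊢
    have hj0 : j ≠ 0 := fun e => hne (by rw [e, pow_zero])
    have hj2 : ¬ 2 ≤ j := fun e => absurd
      (((pow_dvd_pow 3 e).trans h1).trans (Nat.factorial_dvd_factorial k4)) (by decide)
    rw [show j = 1 by omega] at h1 ⊢
    exact ⟨rfl, (Nat.prime_three.dvd_factorial).1 h1⟩
  have cΦ := (card_map_act (inf_le_right : (P : Subgroup G) ⊓ M ≤ M)).trans i3.1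
  have cube : ∀ y (hy : y ∈ (P : Subgroup G) ⊓ M), act Δ ⟨y, hy.2⟩ ^ 3 = 1 := fun y hy => by
    have := pow_card_eq_one' (x := (⟨act Δ ⟨y, hy.2⟩, ⟨y, hy.2⟩, hy, rfl⟩ :
      (((P : Subgroup G) ⊓ M).subgroupOf M).map (act Δ)))
    rw [cΦ] at this
    exact congrArg Subtype.val this
  suffices hy : ∃ y ∈ (P : Subgroup G) ⊓ M, y ≠ 1 ∧ (fixedBy Ω y).ncard = k ∧ fixedBy Ω y ≠ Δ ∧
      centralizer {y} ⊓ (P : Subgroup G) ≤ M by
    obtain ⟨y, hy, hy1, hyk, hyΔ, hyC⟩ := hy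
    obtain ⟨b, hb, hbΔ⟩ : ∃ b ∈ fixedBy Ω y, b ∉ Δ := by
      by_contra h
      push Not at h
      exact hyΔ (Set.eq_of_subset_of_ncard_le h hyk.ge)
    have free : ∀ q ∈ (P : Subgroup G), q ∈ K → q • b = b → q = 1 := fun q hq hqK e => by
      by_contra h1
      exact hbΔ ((F1 rfl q hq h1 hqK).subset e)
    have y3 : y ^ 3 = 1 := free _ (pow_mem hy.1 3)
      ((act_eq_one (⟨y, hy.2⟩ ^ 3)).1 (by rw [map_pow, cube y hy]))
      (pow_mem (show y ∈ stabilizer G b from hb) 3)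
    refine wreath_of_small hG P hy.1 hy1 y3 (card_le_nine (P.isPGroup'.to_le inf_le_right) ?_)
      fun n hn e => ?_
    · have c1 : Nat.card ↥(K ⊓ (centralizer {y} ⊓ (P : Subgroup G))) ≤ k := hyk ▸ card_le_of_free
        (fun q hq => by
          rw [mem_fixedBy, ← mul_smul, ← mem_centralizer_singleton_iff.1 hq.2.1, mul_smul, hb])
        fun q hq => free q hq.2.2 hq.1
      have c2 := H2.card_mul_relIndex_of_le
        (inf_le_right : K ⊓ (centralizer {y} ⊓ (P : Subgroup G)) ≤ _)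
      rw [inf_relIndex_right] at c2
      have c3 : K.relIndex (centralizer {y} ⊓ (P : Subgroup G)) ≤ 3 :=
        (relIndex_le_of_le_right (le_inf inf_le_right hyC) (by omega)).trans i3.1.le
      nlinarith
    · refine hy1 (eq_one_of_odd_inv ?_ (pow_orderOf_eq_one n) e y3)
      rcases (by omega : k = 3 ∨ k = 4) with h | h
      · exact odd_of_stab h2 (Δ := fixedBy Ω y) (by rw [hyk, h]; decide)
          (mem_stab_of_conj (by rw [e, fixedBy_inv]))
      · have st : ∀ Q : Subgroup G, Q ≤ stabilizer G (Set.univ : Set Ω) := fun Q g _ => by simp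
        have m1 := inv_modEq P.isPGroup' (st _)
        have m2 := inv_modEq (P.isPGroup'.to_le (zpowers_le.2 hx)) (st _)
        rw [show {w ∈ (Set.univ : Set Ω) | ∀ q ∈ zpowers x, q • w = w} = Δ from Set.ext fun w =>
          ⟨fun hw => hw.2 x (mem_zpowers x), fun hw => ⟨trivial, by
            rintro _ ⟨j, rfl⟩; exact fixedBy_subset_fixedBy_zpow Ω x j hw⟩⟩] at m2
        set Γ := {w ∈ (Set.univ : Set Ω) | ∀ q ∈ (P : Subgroup G), q • w = w} with hΓ
        have m3 : Γ.ncard ≤ k := Set.ncard_le_ncard fun w hw => hw.2 x hx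
        have m4 : Γ.ncard ≠ k := fun h => hA ⟨Γ, h, fun q hq =>
          (mem_fixingSubgroup_iff G).2 fun w hw => hw.2 q hq⟩
        have m5 : Γ.ncard % 3 = k % 3 := m1.symm.trans m2
        refine odd_of_stab h2 (Δ := Γ) (by rw [show Γ.ncard = 1 by omega]; decide)
          ((mem_stabilizer_set' Γ.toFinite).2 fun w hw => ⟨trivial, fun q hq => ?_⟩)
        have := hw.2 _ ((mem_normalizer_iff''.1 hn q).1 hq)
        rwa [mul_smul, mul_smul, inv_smul_eq_iff] at this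
  by_cases hPM : (P : Subgroup G) ≤ M
  · by_contra hno
    push Not at hno
    have hsc : ∀ y ∈ (P : Subgroup G), y ≠ 1 → (fixedBy Ω y).ncard = k → fixedBy Ω y = Δ :=
      fun y hy h1 hk' => by
        by_contra h
        exact hno y ⟨hy, hPM hy⟩ h1 hk' h (inf_le_right.trans hPM)
    haveI : (K.subgroupOf P).Normal := ⟨fun a ha g => conj_mem_fix (hPM g.2) ha⟩
    obtain ⟨z, hz, hzc, oz⟩ := H3.exists_mem_center_orderOf_eq P.isPGroup' (K.subgroupOf P)
      fun h => by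
        have h' : (⟨x, hx⟩ : (P : Subgroup G)) ∈ K.subgroupOf P := hxK
        rw [h, mem_bot] at h'
        exact hx1 (congrArg Subtype.val h')
    have z1 : (z : G) ≠ 1 := fun e => by
      rw [show z = 1 from Subtype.ext e, orderOf_one] at oz; omega
    have ez := F1 rfl z z.2 z1 hz
    refine hPK (le_trans (le_inf (hG ▸ le_top) le_rfl)
      ((H3.commutator_inf_sylow_le_iff P K).2 fun u hu g hg => ?_))
    obtain ⟨m, hm, e⟩ := ctrl P (M := M) z.2
      (fun a ha => congrArg Subtype.val (mem_center_iff.1 hzc ⟨a, ha⟩))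
      (fun g hg => by
        have := mem_stab_of_conj ((hsc _ hg (by simpa using z1)
          (by rw [← smul_fixedBy, Set.ncard_smul_set, ez])).trans ez.symm)
        rwa [ez] at this) hu hg
    rw [← e] at hg ⊢
    by_cases huK : u ∈ K
    · exact mul_mem (inv_mem huK) (conj_mem_fix hm huK)
    set v := act Δ ⟨u, hPM hu⟩ with hv
    have v1 : v ≠ 1 := fun h => huK ((act_eq_one _).1 h)
    have v3 : v ^ 3 = 1 := cube u ⟨hu, hPM hu⟩
    have ov : orderOf v = 3 := orderOf_eq_prime v3 v1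
    have hmem : act Δ ⟨m, hm⟩ * v * (act Δ ⟨m, hm⟩)⁻¹ ∈ zpowers v := by
      rw [eq_of_le_of_card_ge (zpowers_le.2 (show v ∈ (((P : Subgroup G) ⊓ M).subgroupOf M).map (act Δ)
        from ⟨_, ⟨hu, hPM hu⟩, rfl⟩)) (by rw [cΦ, Nat.card_zpowers, ov])]
      exact ⟨⟨m, hm⟩ * ⟨u, hPM hu⟩ * ⟨m, hm⟩⁻¹, ⟨hg, hPM hg⟩, by
        rw [map_mul, map_mul, map_inv]⟩
    classical
    rw [mem_zpowers_iff_mem_range_orderOf, ov, Finset.mem_image] at hmem
    obtain ⟨i, hi, e'⟩ := hmem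
    rcases (by have := Finset.mem_range.1 hi; omega : i = 2 ∨ i = 1 ∨ i = 0) with rfl | rfl | rfl
    · exfalso
      have e2 : act Δ ⟨m, hm⟩ * v * (act Δ ⟨m, hm⟩)⁻¹ = v⁻¹ := by
        rw [← e']; exact eq_inv_of_mul_eq_one_left (by rw [← pow_succ]; exact v3)
      set Γ := Δ \ fixedBy Ω u with hΓ
      have g1 : Γ.Nonempty := by
        by_contra h
        rw [Set.not_nonempty_iff_eq_empty, Set.diff_eq_empty] at h
        exact huK ((mem_fixingSubgroup_iff_subset_fixedBy G).2 h)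
      have g2 := inv_modEq (P.isPGroup'.to_le (zpowers_le.2 hu)) (Δ := Γ) (zpowers_le.2
        ((mem_stabilizer_set' Γ.toFinite).2 fun w hw => ⟨(mem_stabilizer_set.1 (hPM hu) w).2 hw.1,
          fun h => hw.2 (smul_left_cancel u h)⟩))
      rw [show {w ∈ Γ | ∀ q ∈ zpowers u, q • w = w} = ∅ from Set.eq_empty_of_forall_notMem
        fun w hw => hw.1.2 (hw.2 u (mem_zpowers u)), Set.ncard_empty] at g2
      have g3 : Γ.ncard ≤ k := Set.ncard_le_ncard Set.diff_subset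
      have g4 := (Set.ncard_pos Γ.toFinite).2 g1
      have g5 : Γ.ncard % 3 = 0 := g2
      have om := odd_of_stab h2 (Δ := Γ) (by rw [show Γ.ncard = 3 by omega]; decide) (m := m)
        ((mem_stabilizer_set' Γ.toFinite).2 fun w hw => ⟨(mem_stabilizer_set.1 hm w).2 hw.1,
          fun h => hw.2 (by
            have := (act_eq_iff (⟨m, hm⟩ * ⟨u, hPM hu⟩ * ⟨m, hm⟩⁻¹) (⟨u, hPM hu⟩⁻¹)).1
              (by rw [map_mul, map_mul, map_inv, map_inv]; exact e2) _ ((mem_stabilizer_set.1 hm w).2 hw.1)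
            have h' : u⁻¹ • m • w = m • w := by rwa [← mem_fixedBy, fixedBy_inv]
            simp only [MulMemClass.coe_mul, InvMemClass.coe_inv, mul_smul, inv_smul_smul, h'] at this
            exact smul_left_cancel m this)⟩)
      refine v1 (eq_one_of_odd_inv om ?_ e2 v3)
      rw [← map_pow, show (⟨m, hm⟩ : M) ^ orderOf m = 1 from Subtype.ext (pow_orderOf_eq_one m),
        map_one]
    · exact (act_eq_one (⟨u, hPM hu⟩⁻¹ * (⟨m, hm⟩ * ⟨u, hPM hu⟩ * ⟨m, hm⟩⁻¹))).1 (by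
        simp only [map_mul, map_inv, ← hv, ← e', pow_one, inv_mul_cancel])
    · exact absurd (by simpa using e'.symm) v1
  · obtain ⟨g, ⟨hg, hgn⟩, hg'⟩ := SetLike.exists_of_lt (H3.lt_inf_normalizer_of_lt P.isPGroup'
      (lt_of_le_of_ne (inf_le_left : (P : Subgroup G) ⊓ M ≤ P) fun e => hPM (inf_eq_left.1 e)))
    refine ⟨g * x * g⁻¹, (mem_normalizer_iff.1 hgn x).1 ⟨hx, fix_le_stab Δ hxK⟩, by simpa using hx1,
      by rw [← smul_fixedBy, Set.ncard_smul_set], fun h => hg' ⟨hg, mem_stab_of_conj h⟩,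
      fun c hc => ?_⟩
    refine ((mem_normalizer_iff''.1 hgn c).2 ⟨P.1.mul_mem (P.1.mul_mem (P.1.inv_mem hg) hc.2) hg,
      mem_stab_of_conj ?_⟩).2
    congr 1
    calc g⁻¹ * c * g * x * (g⁻¹ * c * g)⁻¹ = g⁻¹ * (c * (g * x * g⁻¹)) * c⁻¹ * g := by group
      _ = x := by rw [mem_centralizer_singleton_iff.1 hc.1]; group

end Cfsg.Agent.H61.Fx

namespace Cfsg.Agent.H61

/-- Clause (4) of `S3365`. -/
theorem fix4_three {G Ω : Type*} [Group G] [Finite G] [IsSimpleGroup G] (hna : ¬ IsMulCommutative G)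
    [MulAction G Ω] [FaithfulSMul G Ω] [Finite Ω] (htrans : MulAction.IsPretransitive G Ω)
    (hfix : ∀ g : G, g ≠ 1 → Nat.card (MulAction.fixedBy Ω g) ≤ 4) (P : Sylow 3 G) (a : Ω)
    (hodd : Odd (Nat.card (MulAction.stabilizer G a))) (h3 : 3 ∣ Nat.card (MulAction.stabilizer G a)) :
    ((∃ H : Subgroup G, H ≠ ⊤ ∧ 3 ∣ Nat.card H ∧ ∀ g : G, g ∉ H → ¬ 3 ∣ Nat.card ↥(H ⊓ H.map (MulAut.conj g).toMonoidHom)) ∨
       (Nat.card P = 3 ∧ ∀ T : Sylow 2 (Subgroup.normalizer ((P : Subgroup G) : Set G)), Nat.card T ≤ 4) ∨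
       (Nat.card P = 9 ∧ ∀ x ∈ (P : Subgroup G), x ^ 3 = 1) ∨
       (Nat.card P = 27 ∧ Cfsg.IsExtraspecial 3 (P : Subgroup G) ∧ ∀ x ∈ (P : Subgroup G), x ^ 3 = 1) ∨
       (∃ T : Sylow 3 (Equiv.Perm (Fin 9)), Nonempty ((P : Subgroup G) ≃* (T : Subgroup (Equiv.Perm (Fin 9)))))) :=
  (Fx.se_or_wreath hna htrans hfix P a hodd h3).imp_right fun h => Or.inr (Or.inr (Or.inr h))

end Cfsg.Agent.H61
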